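import Cfsg.Agent.Lib.Chevalley.Homocyclic.Data
import Cfsg.Agent.Lib.Chevalley.OrderG2
import Cfsg.Agent.Lib.Chevalley.OrderB2
import Cfsg.Agent.Lib.Chevalley.OrderD4
import Cfsg.Agent.Lib.Chevalley.OrderF4
import Cfsg.Agent.Lib.Chevalley.OrderE6
import Cfsg.Agent.Lib.Chevalley.OrderE7
import Cfsg.Agent.Lib.Chevalley.OrderE8

/-!
Homocyclic Sylow subgroups for primes away from the characteristic and the order of the Weyl group,
assembled for the seven tabulated data.
-/

set_option autoImplicit false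
set_option maxRecDepth 100000

namespace CfsgLib.Chevalley.Homocyclic

open Cfsg.Lie CfsgLib.KnownSimple.HomocyclicSylow

variable {D : ChevalleyDatum} {A : Aux} {r : ℕ} [hr : Fact r.Prime]

theorem wSet_card (h : Full D A) {R : List ℕ} (hR : reflTabB D A R = true) {Ls : List CosetLevel}
    (hLs : ∀ k < D.rank, levelB D A R k (Ls.getD k default) = true) {n : ℕ}
    (hn : ((List.range D.rank).map fun k => (Ls.getD k default).imgs.length).prod = n) :
    (wSet h.cert D.rank).card = n := by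
  have e := count_eq h hR hLs 1
  simp only [one_pow, Finset.sum_const, smul_eq_mul, mul_one, Finset.card_univ, Fintype.card_fin] at e
  rw [e, ← hn]
  rfl

theorem not_dvd_gcd {degs : List ℕ} (hrW : ¬ r ∣ degs.prod) (Q : ℕ) {c : ℕ} (hc : c ∣ degs.prod) :
    ¬ r ∣ Nat.gcd Q c := fun h => hrW ((h.trans (Nat.gcd_dvd_right _ _)).trans hc)

/-- A Sylow subgroup is homocyclic, given the orders, the Weyl group and the eigenvalue bound. -/
theorem of_bound (h : Full D A) {degs : List ℕ} (hlen : degs.length = D.rank)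
    (hpos : ∀ e ∈ degs, 0 < e) (hWcard : (wSet h.cert D.rank).card = degs.prod)
    (hb : Bound h.cert degs r)
    {F : Type*} [Field F] [Fintype F] {q : ℕ} (hq : Fintype.card F = q) (hrq : ¬ r ∣ q) (hrW : ¬ r ∣ degs.prod)
    (hdata : ∀ (K : Type) [Field K] [Fintype K], CardData D degs r K)
    (hdataF : CardData D degs r F) (P : Sylow r (D.group F)) :
    Nonempty (↥(P : Subgroup (D.group F)) ≃*
      (Fin (degs.filter fun e => orderOf (q : ZMod r) ∣ e).length → Multiplicative (ZMod (r ^ cycExp q r)))) :=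
  main h hlen hpos hWcard hq hrq hrW hdata hdataF
    (fun σ hσ ha => hb σ hσ (fun hh => hrW ((hh.trans (orderOf_dvd_card h hσ)).trans (dvd_of_eq hWcard))) q hrq ha) P

theorem dataG2 {K : Type*} [Field K] [Fintype K] : CardData chevG2 [2, 6] r K :=
  ⟨1, hr.out.not_dvd_one, cardG2, card_diagonalG2⟩

theorem dataB2 (hrW : ¬ r ∣ ([2, 4] : List ℕ).prod) {K : Type*} [Field K] [Fintype K] :
    CardData chevB2 [2, 4] r K :=
  ⟨_, not_dvd_gcd hrW _ (by norm_num), cardB2, card_diagonalB2⟩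

theorem dataD4 (hrW : ¬ r ∣ ([2, 4, 4, 6] : List ℕ).prod) {K : Type*} [Field K] [Fintype K] :
    CardData chevD4 [2, 4, 4, 6] r K :=
  ⟨_, fun h => (hr.out.dvd_mul.1 h).elim (not_dvd_gcd hrW _ (by norm_num)) (not_dvd_gcd hrW _ (by norm_num)),
    cardD4, card_diagonalD4⟩

theorem dataF4 {K : Type*} [Field K] [Fintype K] : CardData chevF4 [2, 6, 8, 12] r K :=
  ⟨1, hr.out.not_dvd_one, cardF4, card_diagonalF4⟩

theorem dataE6 (hrW : ¬ r ∣ ([2, 5, 6, 8, 9, 12] : List ℕ).prod) {K : Type*} [Field K] [Fintype K] :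
    CardData chevE6 [2, 5, 6, 8, 9, 12] r K :=
  ⟨_, not_dvd_gcd hrW _ (by norm_num), cardE6, card_diagonalE6⟩

theorem dataE7 (hrW : ¬ r ∣ ([2, 6, 8, 10, 12, 14, 18] : List ℕ).prod) {K : Type*} [Field K] [Fintype K] :
    CardData chevE7 [2, 6, 8, 10, 12, 14, 18] r K :=
  ⟨_, not_dvd_gcd hrW _ (by norm_num), cardE7, card_diagonalE7⟩

theorem dataE8 {K : Type*} [Field K] [Fintype K] : CardData chevE8 [2, 8, 12, 14, 18, 20, 24, 30] r K :=
  ⟨1, hr.out.not_dvd_one, cardE8, card_diagonalE8⟩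

theorem wCardG2 : (wSet fullG2.cert chevG2.rank).card = ([2, 6] : List ℕ).prod :=
  wSet_card fullG2 reflTabG2_ok levelsG2_ok (by decide +kernel)
theorem wCardB2 : (wSet fullB2.cert chevB2.rank).card = ([2, 4] : List ℕ).prod :=
  wSet_card fullB2 reflTabB2_ok levelsB2_ok (by decide +kernel)
theorem wCardD4 : (wSet fullD4.cert chevD4.rank).card = ([2, 4, 4, 6] : List ℕ).prod :=
  wSet_card fullD4 reflTabD4_ok levelsD4_ok (by decide +kernel)
theorem wCardF4 : (wSet fullF4.cert chevF4.rank).card = ([2, 6, 8, 12] : List ℕ).prod :=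
  wSet_card fullF4 reflTabF4_ok levelsF4_ok (by decide +kernel)
theorem wCardE6 : (wSet fullE6.cert chevE6.rank).card = ([2, 5, 6, 8, 9, 12] : List ℕ).prod :=
  wSet_card fullE6 reflTabE6_ok levelsE6_ok (by decide +kernel)
theorem wCardE7 : (wSet fullE7.cert chevE7.rank).card = ([2, 6, 8, 10, 12, 14, 18] : List ℕ).prod :=
  wSet_card fullE7 reflTabE7_ok levelsE7_ok (by decide +kernel)
theorem wCardE8 : (wSet fullE8.cert chevE8.rank).card = ([2, 8, 12, 14, 18, 20, 24, 30] : List ℕ).prod :=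
  wSet_card fullE8 reflTabE8_ok levelsE8_ok (by decide +kernel)

end CfsgLib.Chevalley.Homocyclic
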